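import Cfsg.Agent.Lib.Helper21.Uni.Defs

set_option autoImplicit false

namespace Cfsg.Agent.Lib.Helper70.Uni

open Matrix Module Cfsg.Agent.Lib.Helper67.Elus Cfsg.Agent.Lib.Helper21.Uni

variable {F : Type*} [Field F] {V : Type*} [AddCommGroup V] [Module F V]

/-- R1 -/
theorem exists_cayley (B : LinearMap.BilinForm F V) {N : Module.End F V} (hN : IsNilpotent N)
    (hs : Skew B N) :
    ∃ x : V ≃ₗ[F] V, (∀ u v, B (x u) (x v) = B u v) ∧
      (x : Module.End F V) * (1 - N) = 1 + N ∧ Commute (x : Module.End F V) N := by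
  obtain ⟨a, ha⟩ := hN.isUnit_one_sub
  obtain ⟨b, hb⟩ := hN.isUnit_one_add
  have hx0 : ((LinearMap.GeneralLinearGroup.generalLinearEquiv F V (b * a⁻¹) : V ≃ₗ[F] V) :
      Module.End F V) = (b : Module.End F V) * ((a⁻¹ : (Module.End F V)ˣ) : Module.End F V) := by
    rw [LinearMap.GeneralLinearGroup.generalLinearEquiv_to_linearMap, Units.val_mul]
  have hx : ((LinearMap.GeneralLinearGroup.generalLinearEquiv F V (b * a⁻¹) : V ≃ₗ[F] V) :
      Module.End F V) * (1 - N) = 1 + N := by
    rw [hx0, ← ha, mul_assoc, Units.inv_mul, mul_one, hb]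
  refine ⟨LinearMap.GeneralLinearGroup.generalLinearEquiv F V (b * a⁻¹), ?_, hx, ?_⟩
  · intro u v
    have hxa : ∀ w, (LinearMap.GeneralLinearGroup.generalLinearEquiv F V (b * a⁻¹) : V ≃ₗ[F] V)
        ((1 - N) w) = (1 + N) w := fun w => LinearMap.congr_fun hx w
    have hsurj : ∀ u, ∃ u', u = (1 - N) u' := by
      intro u
      refine ⟨((a⁻¹ : (Module.End F V)ˣ) : Module.End F V) u, ?_⟩
      rw [← ha, ← Module.End.mul_apply, Units.mul_inv]
      rfl
    obtain ⟨u', rfl⟩ := hsurj u
    obtain ⟨v', rfl⟩ := hsurj v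
    rw [hxa, hxa]
    have h1 := hs u' v'
    simp only [LinearMap.add_apply, LinearMap.sub_apply, Module.End.one_apply, map_add, map_sub, h1]
    abel
  · rw [hx0]
    have h1 : Commute (a : Module.End F V) N := by
      rw [ha]; exact (Commute.one_left N).sub_left (Commute.refl N)
    have h2 : Commute (b : Module.End F V) N := by
      rw [hb]; exact (Commute.one_left N).add_left (Commute.refl N)
    exact h2.mul_left h1.units_inv_left

end Cfsg.Agent.Lib.Helper70.Uni
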