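import Cfsg.Agent.Lib.Helper21.Uni.Defs

set_option autoImplicit false

namespace Cfsg.Agent.Lib.Helper70.Uni

open Matrix Module Cfsg.Agent.Lib.Helper67.Elus Cfsg.Agent.Lib.Helper21.Uni

variable {F : Type*} [Field F] {V : Type*} [AddCommGroup V] [Module F V]

/-- R2 -/
theorem inv_of_cayley [FiniteDimensional F V] (h2 : (2 : F) ≠ 0) {N : Module.End F V}
    (hN : IsNilpotent N) {x : V ≃ₗ[F] V} (hx : (x : Module.End F V) * (1 - N) = 1 + N)
    (hc : Commute (x : Module.End F V) N) {W : Submodule F V} (hW : ∀ w ∈ W, x w ∈ W) :
    Inv N W := by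
  have hc1 : Commute (x : Module.End F V) (1 - N) := (Commute.one_right _).sub_right hc
  have e1 : (1 - N) * ((x : Module.End F V) + 1) = (2 : F) • (1 : Module.End F V) := by
    rw [mul_add, ← hc1.eq, hx, mul_one, two_smul]
    abel
  have e2 : (x : Module.End F V) - 1 = ((x : Module.End F V) + 1) * N := by
    have : (x : Module.End F V) * (1 - N) = (x : Module.End F V) - (x : Module.End F V) * N := by
      rw [mul_sub, mul_one]
    rw [this] at hx
    rw [add_mul, one_mul]
    have h3 : (x : Module.End F V) = 1 + N + (x : Module.End F V) * N := by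
      rw [← hx]; abel
    conv_lhs => rw [h3]
    abel
  have hinj : Function.Injective (((x : Module.End F V) + 1 : Module.End F V) : V → V) := by
    rw [injective_iff_map_eq_zero]
    intro v hv
    have := LinearMap.congr_fun e1 v
    rw [Module.End.mul_apply, hv, map_zero, LinearMap.smul_apply, Module.End.one_apply] at this
    exact (smul_eq_zero.1 this.symm).resolve_left h2
  have hW' : ∀ w ∈ W, ((x : Module.End F V) + 1) w ∈ W := by
    intro w hw
    rw [LinearMap.add_apply, Module.End.one_apply]
    exact W.add_mem (hW w hw) hw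
  have hTinj : Function.Injective (((x : Module.End F V) + 1).restrict hW') := by
    intro a b hab
    apply Subtype.ext
    apply hinj
    exact congrArg Subtype.val hab
  have hTsurj := LinearMap.injective_iff_surjective.1 hTinj
  intro w hw
  have hm : ((x : Module.End F V) - 1) w ∈ W := by
    rw [LinearMap.sub_apply, Module.End.one_apply]
    exact W.sub_mem (hW w hw) hw
  obtain ⟨w', hw'⟩ := hTsurj ⟨_, hm⟩
  have h4 : ((x : Module.End F V) + 1) (w' : V) = ((x : Module.End F V) - 1) w :=
    congrArg Subtype.val hw'
  rw [e2, Module.End.mul_apply] at h4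
  rw [← hinj h4]
  exact w'.2

end Cfsg.Agent.Lib.Helper70.Uni
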