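import Cfsg.Agent.Lib.Helper21.Uni.Defs
import Cfsg.Agent.Lib.Helper67.Elus.J7b

set_option autoImplicit false

namespace Cfsg.Agent.Lib.Helper70.Uni

open Matrix Module Cfsg.Agent.Lib.Helper67.Elus Cfsg.Agent.Lib.Helper21.Uni

variable {F : Type*} [Field F] {V : Type*} [AddCommGroup V] [Module F V]

/-- R3 -/
theorem cayley_pow [FiniteDimensional F V] {p : ℕ} [Fact p.Prime] [CharP F p] {N : Module.End F V}
    (hN : N ^ p = 0) {x : V ≃ₗ[F] V} (hx : (x : Module.End F V) * (1 - N) = 1 + N)
    (hc : Commute (x : Module.End F V) N) : x ^ p = 1 := by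
  have hnil : IsNilpotent N := ⟨p, hN⟩
  have hc1 : Commute ((x : Module.End F V) - 1) (1 - N) :=
    (((Commute.one_right _).sub_right hc)).sub_left (Commute.one_left _)
  have e1 : ((x : Module.End F V) - 1) * (1 - N) = (2 : F) • N := by
    rw [sub_mul, hx, one_mul, two_smul]; abel
  have e2 : ((x : Module.End F V) - 1) ^ p * (1 - N) ^ p = 0 := by
    rw [← hc1.mul_pow, e1, smul_pow, hN, smul_zero]
  have e3 : ((x : Module.End F V) - 1) ^ p = 0 :=
    (hnil.isUnit_one_sub.pow p).mul_left_eq_zero.1 e2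
  have e4 := (unip_props e3).1
  rw [add_sub_cancel] at e4
  apply LinearEquiv.toLinearMap_injective
  have e5 : ∀ n : ℕ, ((x ^ n : V ≃ₗ[F] V) : Module.End F V) = (x : Module.End F V) ^ n := by
    intro n
    induction n with
    | zero => rfl
    | succ n ih => rw [pow_succ, pow_succ, ← ih]; rfl
  rw [e5, e4]
  rfl

end Cfsg.Agent.Lib.Helper70.Uni
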