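import Cfsg.Agent.Lib.Helper21.Uni.Defs

set_option autoImplicit false

namespace Cfsg.Agent.Lib.Helper70.Uni

open Matrix Module Cfsg.Agent.Lib.Helper67.Elus Cfsg.Agent.Lib.Helper21.Uni

variable {F : Type*} [Field F] {V : Type*} [AddCommGroup V] [Module F V]

/-- R4 -/
theorem cayley_ne_smul (h2 : (2 : F) ≠ 0) {N : Module.End F V} (hN : IsNilpotent N) (hN0 : N ≠ 0)
    {x : V ≃ₗ[F] V} (hx : (x : Module.End F V) * (1 - N) = 1 + N) (z : F) :
    (x : Module.End F V) ≠ z • 1 := by
  intro h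
  rw [h, smul_mul_assoc, one_mul, smul_sub] at hx
  have h10 : (1 : Module.End F V) ≠ 0 := by
    intro h1
    apply hN0
    rw [← mul_one N, h1, mul_zero]
  have hsm : ∀ c : F, c • (1 : Module.End F V) = 0 → c = 0 := fun c hc =>
    (smul_eq_zero.1 hc).resolve_right h10
  have e1 : (z + 1) • N = (z - 1) • (1 : Module.End F V) := by
    rw [add_smul, sub_smul, one_smul, one_smul]
    have : z • (1 : Module.End F V) = 1 + N + z • N := by rw [← hx]; abel
    rw [this]; abel
  by_cases hz : z + 1 = 0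
  · rw [hz, zero_smul] at e1
    have := hsm _ e1.symm
    apply h2
    linear_combination hz - this
  · have e2 : N = ((z + 1)⁻¹ * (z - 1)) • (1 : Module.End F V) := by
      rw [mul_smul, ← e1, smul_smul, inv_mul_cancel₀ hz, one_smul]
    obtain ⟨k, hk⟩ := hN
    rw [e2, smul_pow, one_pow] at hk
    have h3 : ((z + 1)⁻¹ * (z - 1)) = 0 := pow_eq_zero_iff (n := k) (by
      rintro rfl
      rw [pow_zero] at hk
      exact one_ne_zero (hsm _ hk)) |>.1 (hsm _ hk)
    apply hN0
    rw [e2, h3, zero_smul]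

end Cfsg.Agent.Lib.Helper70.Uni
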